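import Cfsg.Agent.H6.He.C2.D1

set_option autoImplicit false
set_option maxRecDepth 100000

namespace Cfsg.H6.He.C2

theorem b0 : allR (blk get gs (gwB gwh 145) gd 103186947633663659911642380675554936674406498560) 4 672 = true := by decide +kernel

theorem b1 : allR (blk get gs (gwB gwh 145) gd 103186947633663659911642380675554936674406498560) 676 666 = true := by decide +kernel

theorem b2 : allR (blk get gs (gwB gwh 145) gd 103186947633663659911642380675554936674406498560) 1342 656 = true := by decide +kernel

theorem b3 : allR (blk get gs (gwB gwh 145) gd 103186947633663659911642380675554936674406498560) 1998 635 = true := by decide +kernel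

theorem b4 : allR (blk get gs (gwB gwh 145) gd 103186947633663659911642380675554936674406498560) 2633 619 = true := by decide +kernel

theorem b5 : allR (blk get gs (gwB gwh 145) gd 103186947633663659911642380675554936674406498560) 3252 600 = true := by decide +kernel

theorem b6 : allR (blk get gs (gwB gwh 145) gd 103186947633663659911642380675554936674406498560) 3852 588 = true := by decide +kernel

theorem b7 : allR (blk get gs (gwB gwh 145) gd 103186947633663659911642380675554936674406498560) 4440 580 = true := by decide +kernel

theorem b8 : allR (blk get gs (gwB gwh 145) gd 103186947633663659911642380675554936674406498560) 5020 537 = true := by decide +kernel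

theorem c0 : allR (clo get gc 49980 355904 781) 0 1562 = true := by decide +kernel

theorem c1 : allR (clo get gc 49980 355904 781) 1562 1562 = true := by decide +kernel

theorem c2 : allR (clo get gc 49980 355904 781) 3124 1562 = true := by decide +kernel

end Cfsg.H6.He.C2
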