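import Cfsg.Agent.H6.He.C2.D1

set_option autoImplicit false
set_option maxRecDepth 100000

namespace Cfsg.H6.He.C2

theorem c3 : allR (clo get gc 49980 355904 781) 4686 781 = true := by decide +kernel

end Cfsg.H6.He.C2
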