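import Cfsg.Agent.H6.Cert
import Cfsg.Agent.H6.He.Pres
import Cfsg.Agent.H6.He.C2.B0
import Cfsg.Agent.H6.He.C2.B1

set_option autoImplicit false
set_option maxRecDepth 100000

namespace Cfsg.H6.He.C2

def sg : List (List ℕ) := [[], [1], [2], [3], [4], [5], [6], [7], [1], [1], [3], [3], [4], [4], [5], [5], [6], [6], [7], [7]]

def BL : List ℕ := [0x108, 0x30a, 0x40c, 0x50e, 0x610, 0x712, 0x2040204, 0x2050205, 0x2060206, 0x2070207, 0x1040104, 0x1050105, 0x1060106, 0x1070107, 0x3050305, 0x3060306, 0x3070307, 0x30203020302, 0x201020102010201, 0x3010301, 0x1020301020301020305, 0x20302030203, 0x4020402, 0x4010401, 0x5020502, 0x50405040504, 0x6020602, 0x60406040604, 0x7020702, 0x70407040704, 0x5010501, 0x6010601, 0x7010701, 0x5030503, 0x6030603, 0x7030703, 0x6050605, 0x7050705, 0x607060705, 0x304030403040304030401, 0x1030103, 0x7060403070604030706040307060403, 0x40504050405, 0x40604060406, 0x40704070407, 0x102010201020102, 0x5070507, 0x5060506, 0x5030201030201030201, 0x101, 0x303, 0x3040607030406070304060703040607, 0x404, 0x505, 0x606, 0x707, 0x202, 0x507060706, 0x104030403040304030403,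 0x0]

def Sub : List (List ℕ) := [[1], [3], [4], [5], [6], [7]]

theorem hA : prepA 506097522914230528 He.R sg 103186947633663659911642380675554936674406498560 BL Sub get gd = true := by decide +kernel

theorem hw : allR (okW BL gwh) 0 145 = true := by decide +kernel

theorem hb : ∀ b, 4 ≤ b → b < 5557 → blk get gs (gwB gwh 145) gd 103186947633663659911642380675554936674406498560 b = true :=
  (range_join (range_join (range_join (allR_range b0 (by norm_num : 4 + 672 = 676)) (allR_range b1 (by norm_num : 676 + 666 = 1342))) (range_join (allR_range b2 (by norm_num : 1342 + 656 = 1998)) (allR_range b3 (by norm_num : 1998 + 635 = 2633)))) (range_join (range_join (allR_range b4 (by norm_num : 2633 + 619 = 3252)) (allR_range b5 (by norm_num : 3252 + 600 = 3852))) (range_join (allR_range b6 (by norm_num : 3852 + 588 = 4440)) (range_join (allR_range b7 (by norm_num : 4440 + 580 = 5020)) (allR_range b8 (by norm_num : 5020 + 537 = 5557))))))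

def X : List (List ℕ) := [[1], [2], [3], [4], [5], [6], [7]]

theorem hC : prepC sg 103186947633663659911642380675554936674406498560 X 7 49980 781 = true := by decide +kernel

theorem hc : ∀ t, 0 ≤ t → t < 7 * 781 → clo get gc 49980 355904 781 t = true :=
  (range_join (range_join (allR_range c0 (by norm_num : 0 + 1562 = 1562)) (allR_range c1 (by norm_num : 1562 + 1562 = 3124))) (range_join (allR_range c2 (by norm_num : 3124 + 1562 = 4686)) (allR_range c3 (by norm_num : 4686 + 781 = 5467))))

theorem cover {G : Type*} [Group G] {ev : ℕ → G} (hev : Good ev 506097522914230528) (hR : Rels ev He.R) :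
    Cover (gen ev Sub) (gen ev X) 49980 :=
  cert_cover hev hR hA hC hw hb (by norm_num) hc


end Cfsg.H6.He.C2
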